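import Mathlib
import Cfsg.Prelude.Def_Solvable

set_option autoImplicit false

namespace Cfsg.Agent.Lib.Helper7.FF

universe u v w

open scoped Pointwise

theorem frob_semidirect {H : Type u} {V : Type v} [Group H] [Group V] [Nontrivial H] [Nontrivial V]
    (φ : H →* MulAut V) (hfree : ∀ h : H, h ≠ 1 → ∀ x : V, φ h x = x → x = 1) :
    Cfsg.IsFrobeniusComplement (SemidirectProduct.inr : H →* V ⋊[φ] H).range := by
  refine ⟨?_, ?_, ?_⟩
  · intro h
    obtain ⟨x, hx⟩ := exists_ne (1 : H)
    have h1 : (SemidirectProduct.inr x : V ⋊[φ] H) ∈ (SemidirectProduct.inr : H →* V ⋊[φ] H).range :=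
      ⟨x, rfl⟩
    rw [h, Subgroup.mem_bot] at h1
    exact hx (SemidirectProduct.inr_injective (by rw [h1, map_one]))
  · intro h
    obtain ⟨x, hx⟩ := exists_ne (1 : V)
    have h1 : (SemidirectProduct.inl x : V ⋊[φ] H) ∈ (SemidirectProduct.inr : H →* V ⋊[φ] H).range := by
      rw [h]; exact Subgroup.mem_top _
    obtain ⟨y, hy⟩ := h1
    have h2 := congrArg SemidirectProduct.left hy
    rw [SemidirectProduct.left_inr, SemidirectProduct.left_inl] at h2
    exact hx h2.symm
  · intro g hg
    rw [eq_bot_iff]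
    rintro x ⟨⟨h, rfl⟩, hx2⟩
    rw [Subgroup.mem_bot]
    have hx2' : (SemidirectProduct.inr h : V ⋊[φ] H) ∈
        MulAut.conj g • (SemidirectProduct.inr : H →* V ⋊[φ] H).range := hx2
    rw [Subgroup.mem_smul_pointwise_iff_exists] at hx2'
    obtain ⟨s, ⟨h', rfl⟩, hs⟩ := hx2'
    rw [MulAut.smul_def, MulAut.conj_apply] at hs
    have hs' : g * SemidirectProduct.inr h' = SemidirectProduct.inr h * g := by
      rw [← hs]; group
    have h2 := congrArg SemidirectProduct.left hs'
    rw [SemidirectProduct.mul_left, SemidirectProduct.mul_left, SemidirectProduct.left_inr,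
      SemidirectProduct.left_inr, map_one, mul_one, one_mul, SemidirectProduct.right_inr] at h2
    by_cases h1 : h = 1
    · rw [h1, map_one]
    · exfalso
      have h3 := hfree h h1 g.left h2.symm
      apply hg
      refine ⟨g.right, ?_⟩
      apply SemidirectProduct.ext
      · rw [SemidirectProduct.left_inr, h3]
      · rw [SemidirectProduct.right_inr]

theorem frob_map {L : Type u} {L' : Type v} [Group L] [Group L'] (f : L ≃* L') (C : Subgroup L)
    (hC : Cfsg.IsFrobeniusComplement C) : Cfsg.IsFrobeniusComplement (C.map f.toMonoidHom) := by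
  obtain ⟨h1, h2, h3⟩ := hC
  refine ⟨?_, ?_, ?_⟩
  · intro h
    exact h1 ((Subgroup.map_eq_bot_iff_of_injective C f.injective).mp h)
  · intro h
    apply h2
    rw [eq_top_iff]
    intro x _
    have hx : f x ∈ C.map f.toMonoidHom := by rw [h]; exact Subgroup.mem_top _
    obtain ⟨c, hc, hcx⟩ := hx
    have : c = x := f.injective hcx
    rw [← this]; exact hc
  · intro g hg
    rw [eq_bot_iff]
    rintro x ⟨⟨c, hc, rfl⟩, hx2⟩
    rw [Subgroup.mem_bot]
    have hx2' : f c ∈ MulAut.conj g • C.map f.toMonoidHom := hx2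
    rw [Subgroup.mem_smul_pointwise_iff_exists] at hx2'
    obtain ⟨s, ⟨c', hc', rfl⟩, hs⟩ := hx2'
    rw [MulAut.smul_def, MulAut.conj_apply] at hs
    have hg0 : f.symm g ∉ C := by
      intro h
      apply hg
      exact ⟨f.symm g, h, f.apply_symm_apply g⟩
    have h4 : c ∈ C ⊓ (MulAut.conj (f.symm g) • C) := by
      refine ⟨hc, ?_⟩
      show c ∈ MulAut.conj (f.symm g) • C
      rw [Subgroup.mem_smul_pointwise_iff_exists]
      refine ⟨c', hc', ?_⟩
      rw [MulAut.smul_def, MulAut.conj_apply]
      apply f.injective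
      rw [map_mul, map_mul, map_inv, f.apply_symm_apply]
      exact hs
    rw [h3 _ hg0, Subgroup.mem_bot] at h4
    show f c = 1
    rw [h4, map_one]

theorem frob_transport {L' : Type u} [Group L'] [Finite L'] (C' : Subgroup L')
    (hC : Cfsg.IsFrobeniusComplement C') :
    ∃ (L : Type) (_ : Group L) (_ : Finite L) (C : Subgroup L),
      Cfsg.IsFrobeniusComplement C ∧ Nonempty (C' ≃* C) := by
  classical
  let e : {i : ℕ // i < Nat.card L'} ≃ L' := Fin.equivSubtype.symm.trans (Finite.equivFin L').symm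
  letI : Group {i : ℕ // i < Nat.card L'} := e.group
  haveI : Finite {i : ℕ // i < Nat.card L'} := Finite.of_equiv _ e.symm
  let f : {i : ℕ // i < Nat.card L'} ≃* L' :=
    { toEquiv := e, map_mul' := fun a b => e.apply_symm_apply _ }
  exact ⟨{i : ℕ // i < Nat.card L'}, inferInstance, inferInstance, C'.map f.symm.toMonoidHom,
    frob_map f.symm C' hC, ⟨f.symm.subgroupMap C'⟩⟩

theorem exists_frob_of_free {H : Type u} {V : Type v} [Group H] [Finite H] [Group V] [Finite V]
    [Nontrivial H] [Nontrivial V]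
    (φ : H →* MulAut V) (hfree : ∀ h : H, h ≠ 1 → ∀ x : V, φ h x = x → x = 1) :
    ∃ (L : Type) (_ : Group L) (_ : Finite L) (C : Subgroup L),
      Cfsg.IsFrobeniusComplement C ∧ Nonempty (H ≃* C) := by
  haveI : Finite (V ⋊[φ] H) := Finite.of_equiv _ SemidirectProduct.equivProd.symm
  obtain ⟨L, iG, iF, C, hC, ⟨e⟩⟩ := frob_transport _ (frob_semidirect φ hfree)
  refine ⟨L, iG, iF, C, hC, ⟨?_⟩⟩
  exact (MonoidHom.ofInjective SemidirectProduct.inr_injective).trans e

theorem exists_frob_of_distrib {H : Type u} {A : Type v} [Group H] [Finite H] [AddGroup A]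
    [Finite A] [Nontrivial H] [Nontrivial A] [DistribMulAction H A]
    (hfree : ∀ h : H, h ≠ 1 → ∀ x : A, h • x = x → x = 0) :
    ∃ (L : Type) (_ : Group L) (_ : Finite L) (C : Subgroup L),
      Cfsg.IsFrobeniusComplement C ∧ Nonempty (H ≃* C) := by
  apply exists_frob_of_free (V := Multiplicative A)
    ((MulAutMultiplicative A).symm.toMonoidHom.comp (DistribMulAction.toAddAut H A))
  intro h hh x hx
  have h1 : h • (Multiplicative.toAdd x) = Multiplicative.toAdd x := congrArg Multiplicative.toAdd hx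
  have h2 := hfree h hh _ h1
  exact congrArg Multiplicative.ofAdd h2

end Cfsg.Agent.Lib.Helper7.FF
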