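import Mathlib
import Cfsg.Prelude.Def_Solvable
import Cfsg.Agent.Lib.Helper7.FrobFree

set_option autoImplicit false

namespace Cfsg.Agent.Lib.Helper7.FF

universe u v

open scoped Pointwise

theorem index_inr_range {H : Type u} {V : Type v} [Group H] [Group V] [Finite H] [Finite V]
    (φ : H →* MulAut V) :
    (SemidirectProduct.inr : H →* V ⋊[φ] H).range.index = Nat.card V := by
  have h1 := Subgroup.card_mul_index (SemidirectProduct.inr : H →* V ⋊[φ] H).range
  rw [SemidirectProduct.card] at h1
  have h2 : Nat.card (SemidirectProduct.inr : H →* V ⋊[φ] H).range = Nat.card H :=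
    (Nat.card_congr (MonoidHom.ofInjective SemidirectProduct.inr_injective).toEquiv).symm
  rw [h2, mul_comm] at h1
  have h3 : 0 < Nat.card H := Nat.card_pos
  exact Nat.eq_of_mul_eq_mul_right h3 h1

theorem frob_transport_index {L' : Type u} [Group L'] [Finite L'] (C' : Subgroup L')
    (hC : Cfsg.IsFrobeniusComplement C') :
    ∃ (L : Type) (_ : Group L) (_ : Finite L) (C : Subgroup L),
      Cfsg.IsFrobeniusComplement C ∧ Nonempty (C' ≃* C) ∧ C.index = C'.index := by
  classical
  let e : {i : ℕ // i < Nat.card L'} ≃ L' := Fin.equivSubtype.symm.trans (Finite.equivFin L').symm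
  letI : Group {i : ℕ // i < Nat.card L'} := e.group
  haveI : Finite {i : ℕ // i < Nat.card L'} := Finite.of_equiv _ e.symm
  let f : {i : ℕ // i < Nat.card L'} ≃* L' :=
    { toEquiv := e, map_mul' := fun a b => e.apply_symm_apply _ }
  exact ⟨{i : ℕ // i < Nat.card L'}, inferInstance, inferInstance, C'.map f.symm.toMonoidHom,
    frob_map f.symm C' hC, ⟨f.symm.subgroupMap C'⟩, Subgroup.index_map_equiv C' f.symm⟩

theorem exists_frob_of_free_index {H : Type u} {V : Type v} [Group H] [Finite H] [Group V]
    [Finite V] [Nontrivial H] [Nontrivial V]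
    (φ : H →* MulAut V) (hfree : ∀ h : H, h ≠ 1 → ∀ x : V, φ h x = x → x = 1) :
    ∃ (L : Type) (_ : Group L) (_ : Finite L) (C : Subgroup L),
      Cfsg.IsFrobeniusComplement C ∧ Nonempty (H ≃* C) ∧ C.index = Nat.card V := by
  haveI : Finite (V ⋊[φ] H) := Finite.of_equiv _ SemidirectProduct.equivProd.symm
  obtain ⟨L, iG, iF, C, hC, ⟨e⟩, hidx⟩ := frob_transport_index _ (frob_semidirect φ hfree)
  refine ⟨L, iG, iF, C, hC, ⟨?_⟩, ?_⟩
  · exact (MonoidHom.ofInjective SemidirectProduct.inr_injective).trans e
  · rw [hidx, index_inr_range]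

theorem exists_frob_of_distrib_index {H : Type u} {A : Type v} [Group H] [Finite H] [AddGroup A]
    [Finite A] [Nontrivial H] [Nontrivial A] [DistribMulAction H A]
    (hfree : ∀ h : H, h ≠ 1 → ∀ x : A, h • x = x → x = 0) :
    ∃ (L : Type) (_ : Group L) (_ : Finite L) (C : Subgroup L),
      Cfsg.IsFrobeniusComplement C ∧ Nonempty (H ≃* C) ∧ C.index = Nat.card A := by
  apply exists_frob_of_free_index (V := Multiplicative A)
    ((MulAutMultiplicative A).symm.toMonoidHom.comp (DistribMulAction.toAddAut H A))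
  intro h hh x hx
  have h1 : h • (Multiplicative.toAdd x) = Multiplicative.toAdd x := congrArg Multiplicative.toAdd hx
  have h2 := hfree h hh _ h1
  exact congrArg Multiplicative.ofAdd h2

end Cfsg.Agent.Lib.Helper7.FF
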