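import Mathlib
import Cfsg.Agent.Lib.Helper6.FrobDiv

set_option autoImplicit false

/-! P. Hall's generalisation of Frobenius' theorem: the number of solutions of `x ^ n = c`
is divisible by `gcd (n, |C_G(c)|)`. -/

namespace Cfsg.Agent.Lib.Helper7.FH

open Finset
open Cfsg.Agent.Lib.Helper6 Cfsg.Agent.Lib.Lead

section

variable {G : Type*} [Group G]

theorem conj_pow'' (y x : G) (n : ℕ) : (y⁻¹ * x * y) ^ n = y⁻¹ * x ^ n * y := by
  have h := conj_pow (a := y⁻¹) (b := x) (i := n)
  rwa [inv_inv] at h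

/-- order of `x` when `x ^ (p ^ a) = y` with `p ∣ orderOf y` -/
theorem orderOf_root [Finite G] {p : ℕ} (hp : p.Prime) (a : ℕ) (x y : G) (hxy : x ^ p ^ a = y)
    (hy : p ∣ orderOf y) : orderOf x = p ^ a * orderOf y := by
  have h1 : orderOf y = orderOf x / Nat.gcd (orderOf x) (p ^ a) := by
    rw [← hxy]; exact orderOf_pow x
  obtain ⟨i, hi, hgi⟩ := (Nat.dvd_prime_pow hp).mp (Nat.gcd_dvd_right (orderOf x) (p ^ a))
  have h2 : orderOf x = p ^ i * orderOf y := by
    rw [h1, ← hgi]; exact (Nat.mul_div_cancel' (Nat.gcd_dvd_left _ _)).symm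
  have hia : i = a := by
    by_contra hne
    have hlt : i < a := lt_of_le_of_ne hi hne
    have h3 : p ^ (i + 1) ∣ orderOf x := by
      rw [h2, pow_succ]; exact Nat.mul_dvd_mul_left _ hy
    have h4 : p ^ (i + 1) ∣ p ^ a := pow_dvd_pow p hlt
    have h5 : p ^ (i + 1) ∣ p ^ i := by rw [← hgi]; exact Nat.dvd_gcd h3 h4
    have h6 := (Nat.pow_dvd_pow_iff_le_right hp.one_lt).mp h5
    omega
  rw [h2, hia]

/-- if `p ∣ orderOf y`, the number of `p ^ a`-th roots of `y` is divisible by `p ^ a` -/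
theorem card_root_dvd [Fintype G] [DecidableEq G] {p : ℕ} (hp : p.Prime) (a : ℕ) (y : G)
    (hy : p ∣ orderOf y) : p ^ a ∣ (univ.filter (fun x : G => x ^ p ^ a = y)).card := by
  classical
  set S := univ.filter (fun x : G => x ^ p ^ a = y) with hS
  set N := orderOf y with hN
  have hNpos : 0 < N := orderOf_pos y
  have hmemS : ∀ x : G, x ∈ S ↔ x ^ p ^ a = y := by
    intro x; rw [hS]; simp
  have hord : ∀ x ∈ S, orderOf x = p ^ a * N :=
    fun x hx => orderOf_root hp a x y ((hmemS x).mp hx) hy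
  rw [Finset.card_eq_sum_card_fiberwise (s := S) (t := S.image (fun x => Subgroup.zpowers x))
    (f := fun x => Subgroup.zpowers x)
    (fun x hx => Finset.mem_coe.mpr (Finset.mem_image_of_mem _ (Finset.mem_coe.mp hx)))]
  apply Finset.dvd_sum
  intro Z hZ
  obtain ⟨x, hx, rfl⟩ := Finset.mem_image.mp hZ
  have hxS : x ^ p ^ a = y := (hmemS x).mp hx
  have hox : orderOf x = p ^ a * N := hord x hx
  have hKord : orderOf (x ^ N) = p ^ a := by
    rw [orderOf_pow x, hox, Nat.gcd_eq_right (dvd_mul_left N (p ^ a)), Nat.mul_div_cancel _ hNpos]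
  have hKcard : Nat.card (Subgroup.zpowers (x ^ N)) = p ^ a := by
    rw [Nat.card_zpowers, hKord]
  have hKle : Subgroup.zpowers (x ^ N) ≤ Subgroup.zpowers x := by
    rw [Subgroup.zpowers_le]
    exact Subgroup.pow_mem _ (Subgroup.mem_zpowers x) N
  have hcommx : ∀ w ∈ Subgroup.zpowers x, Commute x w := by
    intro w hw
    obtain ⟨t, rfl⟩ := Subgroup.mem_zpowers_iff.mp hw
    exact Commute.zpow_right (Commute.refl x) t
  have hKpow : ∀ w ∈ Subgroup.zpowers (x ^ N), w ^ p ^ a = 1 := by
    intro w hw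
    have h1 : (⟨w, hw⟩ : Subgroup.zpowers (x ^ N)) ^ Nat.card (Subgroup.zpowers (x ^ N)) = 1 :=
      pow_card_eq_one'
    rw [hKcard] at h1
    exact congrArg Subtype.val h1
  suffices h : (S.filter (fun x' => Subgroup.zpowers x' = Subgroup.zpowers x)).card = p ^ a by
    rw [h]
  rw [← hKcard, Nat.card_eq_fintype_card, ← Finset.card_univ]
  symm
  apply Finset.card_bij (fun (w : Subgroup.zpowers (x ^ N)) _ => x * (w : G))
  · intro w _
    have hw1 := hKpow w w.2
    have hc := hcommx w (hKle w.2)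
    have hxwS : x * (w : G) ∈ S := by
      rw [hmemS, hc.mul_pow, hxS, hw1, mul_one]
    rw [Finset.mem_filter]
    refine ⟨hxwS, ?_⟩
    have hle : Subgroup.zpowers (x * (w : G)) ≤ Subgroup.zpowers x := by
      rw [Subgroup.zpowers_le]
      exact Subgroup.mul_mem _ (Subgroup.mem_zpowers x) (hKle w.2)
    apply Subgroup.eq_of_le_of_card_ge hle
    rw [Nat.card_zpowers, Nat.card_zpowers, hord _ hxwS, hox]
  · intro w₁ _ w₂ _ h
    exact Subtype.ext (mul_left_cancel h)
  · intro x' hx'
    rw [Finset.mem_filter] at hx'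
    obtain ⟨hx'S, hx'Z⟩ := hx'
    have hx'y : x' ^ p ^ a = y := (hmemS x').mp hx'S
    have hx'mem : x' ∈ Subgroup.zpowers x := by rw [← hx'Z]; exact Subgroup.mem_zpowers x'
    obtain ⟨s, hs⟩ := Subgroup.mem_zpowers_iff.mp hx'mem
    have hw : x⁻¹ * x' = x ^ (s - 1) := by
      rw [zpow_sub, zpow_one, ← hs]
      exact ((Commute.refl x).zpow_right s).inv_left.eq.symm ▸ rfl
    have hwp : (x ^ (s - 1)) ^ p ^ a = 1 := by
      rw [← hw]
      have hc : Commute x⁻¹ x' := (hcommx x' hx'mem).inv_left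
      rw [hc.mul_pow, inv_pow, hxS, hx'y, inv_mul_cancel]
    have hdvd : ((p ^ a * N : ℕ) : ℤ) ∣ (s - 1) * ((p ^ a : ℕ) : ℤ) := by
      rw [← hox]
      apply orderOf_dvd_iff_zpow_eq_one.mpr
      rw [zpow_mul, zpow_natCast]
      exact hwp
    have hpa : ((p ^ a : ℕ) : ℤ) ≠ 0 := by
      exact_mod_cast (pow_pos hp.pos a).ne'
    have hdvd2 : (N : ℤ) ∣ s - 1 := by
      have h3 : ((p ^ a : ℕ) : ℤ) * (N : ℤ) ∣ ((p ^ a : ℕ) : ℤ) * (s - 1) := by
        have e1 : ((p ^ a * N : ℕ) : ℤ) = ((p ^ a : ℕ) : ℤ) * (N : ℤ) := by push_cast; ring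
        rw [← e1, mul_comm ((p ^ a : ℕ) : ℤ) (s - 1)]
        exact hdvd
      exact (mul_dvd_mul_iff_left hpa).mp h3
    obtain ⟨u, hu⟩ := hdvd2
    have hwK : x⁻¹ * x' ∈ Subgroup.zpowers (x ^ N) := by
      rw [hw, hu, zpow_mul, zpow_natCast]
      exact Subgroup.zpow_mem _ (Subgroup.mem_zpowers _) u
    exact ⟨⟨x⁻¹ * x', hwK⟩, Finset.mem_univ _, by
      show x * (x⁻¹ * x') = x'
      rw [mul_inv_cancel_left]⟩

/-- if `orderOf y` is coprime to `q`, the `q`-th roots of `y` correspond to the `q`-th roots of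
`1` in the centralizer of `y` -/
theorem card_root_coprime [Fintype G] [DecidableEq G] (q : ℕ) (y : G)
    (hy : (orderOf y).Coprime q) :
    (univ.filter (fun x : G => x ^ q = y)).card
      = (univ.filter (fun z : G => z ^ q = 1 ∧ y * z = z * y)).card := by
  obtain ⟨s, hs⟩ : ∃ s : ℕ, (y ^ s) ^ q = y := by
    by_cases h1 : orderOf y = 1
    · refine ⟨0, ?_⟩
      rw [orderOf_eq_one_iff] at h1
      rw [h1, pow_zero, one_pow]
    · have h2 : 1 < orderOf y := by
        have := orderOf_pos y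
        omega
      obtain ⟨m, -, hm⟩ := Nat.exists_mul_mod_eq_one_of_coprime hy.symm h2
      refine ⟨m, ?_⟩
      rw [← pow_mul, mul_comm, ← pow_mod_orderOf, hm, pow_one]
  have hcz : ∀ x : G, Commute x y → Commute x (y ^ s) := fun x h => h.pow_right s
  apply Finset.card_nbij' (fun x => x * (y ^ s)⁻¹) (fun w => w * y ^ s)
  · intro x hx
    simp only [Finset.coe_filter, Finset.mem_univ, true_and, Set.mem_ofPred_eq] at hx ⊢
    have hxy : Commute x y := by
      rw [← hx]; exact (Commute.refl x).pow_right q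
    have hc : Commute x (y ^ s)⁻¹ := (hcz x hxy).inv_right
    refine ⟨?_, ?_⟩
    · rw [hc.mul_pow, inv_pow, hs, hx, mul_inv_cancel]
    · have h2 : Commute y (x * (y ^ s)⁻¹) :=
        Commute.mul_right hxy.symm ((Commute.refl y).pow_right s).inv_right
      exact h2.eq
  · intro w hw
    simp only [Finset.coe_filter, Finset.mem_univ, true_and, Set.mem_ofPred_eq] at hw ⊢
    obtain ⟨hw1, hw2⟩ := hw
    have hwy : Commute w y := (show Commute y w from hw2).symm
    rw [(hcz w hwy).mul_pow, hw1, hs, one_mul]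
  · intro x _
    show x * (y ^ s)⁻¹ * y ^ s = x
    rw [inv_mul_cancel_right]
  · intro w _
    show w * y ^ s * (y ^ s)⁻¹ = w
    rw [mul_inv_cancel_right]

theorem root_conj_card [Fintype G] [DecidableEq G] (q : ℕ) (y g : G) :
    (univ.filter (fun x : G => x ^ q = g * y * g⁻¹)).card
      = (univ.filter (fun x : G => x ^ q = y)).card := by
  apply Finset.card_nbij' (fun x => g⁻¹ * x * g) (fun x => g * x * g⁻¹)
  · intro x hx
    simp only [Finset.coe_filter, Finset.mem_univ, true_and, Set.mem_ofPred_eq] at hx ⊢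
    rw [conj_pow'', hx]; group
  · intro x hx
    simp only [Finset.coe_filter, Finset.mem_univ, true_and, Set.mem_ofPred_eq] at hx ⊢
    rw [conj_pow, hx]
  · intro x _
    show g * (g⁻¹ * x * g) * g⁻¹ = x
    group
  · intro x _
    show g⁻¹ * (g * x * g⁻¹) * g = x
    group

/-- for a central element `c`, the number of `n`-th roots of `c` is divisible by
`gcd (n, |G|)` -/
theorem central_root_dvd [Finite G] (c : G) (hc : c ∈ Subgroup.center G) (n : ℕ) (hn : n ≠ 0) :
    Nat.gcd n (Nat.card G) ∣ Nat.card {x : G // x ^ n = c} := by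
  classical
  haveI : Fintype G := Fintype.ofFinite G
  rw [Nat.dvd_iff_prime_pow_dvd_dvd]
  intro p k hp hpk
  have hpk_n : p ^ k ∣ n := hpk.trans (Nat.gcd_dvd_left _ _)
  have hpk_G : p ^ k ∣ Nat.card G := hpk.trans (Nat.gcd_dvd_right _ _)
  obtain ⟨a, m, hpm, rfl⟩ := Nat.exists_eq_pow_mul_and_not_dvd hn p hp.one_lt.ne'
  have hka : k ≤ a := by
    have h1 : p ^ k ∣ p ^ a :=
      (Nat.Coprime.dvd_mul_right
        (Nat.Coprime.pow_left k ((Nat.Prime.coprime_iff_not_dvd hp).mpr hpm))).mp hpk_n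
    exact (Nat.pow_dvd_pow_iff_le_right hp.one_lt).mp h1
  rw [← card_filter_eq_natCard]
  set Y := univ.filter (fun y : G => y ^ m = c) with hY
  have hmemY : ∀ y : G, y ∈ Y ↔ y ^ m = c := by
    intro y; rw [hY]; simp
  have hfib : (univ.filter (fun x : G => x ^ (p ^ a * m) = c)).card
      = ∑ y ∈ Y, (univ.filter (fun x : G => x ^ p ^ a = y)).card := by
    rw [Finset.card_eq_sum_card_fiberwise (f := fun x => x ^ p ^ a) (t := Y)]
    · apply Finset.sum_congr rfl
      intro y hy
      congr 1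
      ext x
      simp only [Finset.mem_filter, Finset.mem_univ, true_and]
      constructor
      · exact fun h => h.2
      · intro h
        refine ⟨?_, h⟩
        rw [pow_mul, h]
        exact (hmemY y).mp hy
    · intro x hx
      simp only [Finset.coe_filter, Finset.mem_univ, true_and, Set.mem_ofPred_eq] at hx
      show x ^ p ^ a ∈ Y
      rw [hmemY, ← pow_mul]
      exact hx
  rw [hfib]
  apply orbit_sum_dvd (p ^ k) (fun y => (univ.filter (fun x : G => x ^ p ^ a = y)).card)
    (fun y g => root_conj_card (p ^ a) y g) _ Y rfl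
  · intro y hy g
    rw [hmemY] at hy ⊢
    rw [conj_pow, hy]
    have h1 := Subgroup.mem_center_iff.mp hc g
    rw [h1, mul_inv_cancel_right]
  · intro y hy
    by_cases hpy : p ∣ orderOf y
    · exact Dvd.dvd.mul_left ((pow_dvd_pow p hka).trans (card_root_dvd hp a y hpy)) _
    · have hcop : (orderOf y).Coprime (p ^ a) :=
        Nat.Coprime.pow_right a ((Nat.Prime.coprime_iff_not_dvd hp).mpr hpy).symm
      show p ^ k ∣ (Subgroup.centralizer ({y} : Set G)).index
        * (univ.filter (fun x : G => x ^ p ^ a = y)).card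
      rw [card_root_coprime (p ^ a) y hcop, card_filter_centralizer, card_pow_gcd_card]
      have hF := frobenius_dvd (G := Subgroup.centralizer ({y} : Set G))
        (Nat.gcd (p ^ a) (Nat.card (Subgroup.centralizer ({y} : Set G))))
        (Nat.gcd_dvd_right _ _)
      have h1 : p ^ k ∣ (Subgroup.centralizer ({y} : Set G)).index
          * Nat.gcd (p ^ a) (Nat.card (Subgroup.centralizer ({y} : Set G))) := by
        rw [← Nat.gcd_mul_left]
        apply Nat.dvd_gcd
        · exact Dvd.dvd.mul_left (pow_dvd_pow p hka) _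
        · rw [Subgroup.index_mul_card]; exact hpk_G
      exact h1.trans (Nat.mul_dvd_mul_left _ hF)

/-- **P. Hall**: the number of `n`-th roots of `c` is divisible by `gcd (n, |C_G(c)|)` -/
theorem root_dvd [Finite G] (c : G) (n : ℕ) (hn : n ≠ 0) :
    Nat.gcd n (Nat.card (Subgroup.centralizer ({c} : Set G))) ∣ Nat.card {x : G // x ^ n = c} := by
  have hcmem : c ∈ Subgroup.centralizer ({c} : Set G) := by
    rw [Subgroup.mem_centralizer_iff]
    intro y hy
    rw [Set.mem_singleton_iff] at hy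
    rw [hy]
  have hcK : (⟨c, hcmem⟩ : Subgroup.centralizer ({c} : Set G))
      ∈ Subgroup.center (Subgroup.centralizer ({c} : Set G)) := by
    rw [Subgroup.mem_center_iff]
    intro g
    apply Subtype.ext
    have h1 := g.2
    rw [Subgroup.mem_centralizer_iff] at h1
    exact (h1 c rfl).symm
  have h1 := central_root_dvd (G := Subgroup.centralizer ({c} : Set G)) ⟨c, hcmem⟩ hcK n hn
  have e : {x : Subgroup.centralizer ({c} : Set G) // x ^ n = ⟨c, hcmem⟩} ≃ {x : G // x ^ n = c} :=
    { toFun := fun x => ⟨(x.1 : G), congrArg Subtype.val x.2⟩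
      invFun := fun x => ⟨⟨x.1, by
        rw [Subgroup.mem_centralizer_iff]
        intro y hy
        rw [Set.mem_singleton_iff] at hy
        rw [hy]
        have h2 : Commute (x.1 ^ n) x.1 := (Commute.refl x.1).pow_left n
        have h3 : x.1 ^ n = c := x.2
        rw [h3] at h2
        exact h2.eq⟩, Subtype.ext x.2⟩
      left_inv := fun x => rfl
      right_inv := fun x => rfl }
  rwa [Nat.card_congr e] at h1

end

end Cfsg.Agent.Lib.Helper7.FH
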