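import Mathlib
import Cfsg.Prelude.Def_Solvable
import Cfsg.Agent.Lib.Helper7.InvSylow
import Cfsg.Agent.Lib.Helper7.FrobKer
import Cfsg.Agent.Lib.Lead.Frob5
import Cfsg.Agent.Lib.Lead.Hall

set_option autoImplicit false

namespace Cfsg.Agent.Lib.Helper7.QS

open scoped Pointwise

section abstract
variable {A : Type*} [CommGroup A]

theorem card_inf_ker_mul_card_map (M : Subgroup A) (ψ : A →* A) :
    Nat.card (M ⊓ ψ.ker : Subgroup A) * Nat.card (M.map ψ) = Nat.card M := by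
  have h1 := Subgroup.card_mul_index (ψ.comp M.subtype).ker
  rw [Subgroup.index_ker, MonoidHom.range_comp, Subgroup.range_subtype] at h1
  have h2 : (ψ.comp M.subtype).ker = (M ⊓ ψ.ker).subgroupOf M := by
    rw [inf_comm, Subgroup.inf_subgroupOf_right]; rfl
  rw [h2, Cfsg.Agent.Lib.Lead.card_subgroupOf_of_le inf_le_left] at h1
  exact h1

variable (I J : A →* A)

/-- the operator `a I + b J`, written multiplicatively -/
def T (a b : ℕ) : A →* A := ((powMonoidHom a).comp I) * ((powMonoidHom b).comp J)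

theorem T_apply (a b : ℕ) (x : A) : T I J a b x = I x ^ a * J x ^ b := rfl

theorem T_T (hI : ∀ x, I (I x) = x⁻¹) (hJ : ∀ x, J (J x) = x⁻¹)
    (hIJ : ∀ x, J (I x) = (I (J x))⁻¹) (a b e : ℕ) (he : e ∣ a ^ 2 + b ^ 2 + 1) (x : A)
    (hx : x ^ e = 1) : T I J a b (T I J a b x) = x := by
  simp only [T_apply, map_mul, map_pow, hI, hJ, hIJ]
  have h1 : x ^ (a ^ 2 + b ^ 2 + 1) = 1 := by
    obtain ⟨c, hc⟩ := he
    rw [hc, pow_mul, hx, one_pow]
  have h2 : (x⁻¹) ^ (a * a) * (x⁻¹) ^ (b * b) = x := by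
    rw [← pow_add, inv_pow, inv_eq_iff_mul_eq_one, ← pow_succ]
    rw [← h1]; congr 1; ring
  simp only [mul_pow, inv_pow, ← pow_mul]
  rw [mul_comm b a]
  have h3 : I (J x) ^ (a * b) * (I (J x) ^ (a * b))⁻¹ = 1 := mul_inv_cancel _
  calc (x ^ (a * a))⁻¹ * (I (J x) ^ (a * b))⁻¹ * (I (J x) ^ (a * b) * (x ^ (b * b))⁻¹)
      = ((x ^ (a * a))⁻¹ * (x ^ (b * b))⁻¹) * (I (J x) ^ (a * b) * (I (J x) ^ (a * b))⁻¹) := by
        ac_rfl
    _ = x := by rw [h3, mul_one, ← inv_pow, ← inv_pow, h2]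

theorem T_W (hI : ∀ x, I (I x) = x⁻¹) (hJ : ∀ x, J (J x) = x⁻¹)
    (hIJ : ∀ x, J (I x) = (I (J x))⁻¹) (a b : ℕ) (x : A) :
    T I J a b (I (J x)) = (I (J (T I J a b x)))⁻¹ := by
  simp only [T_apply, map_mul, map_pow, hI, hJ, hIJ, map_inv, inv_inv, mul_inv, inv_pow]

theorem W_W (hI : ∀ x, I (I x) = x⁻¹) (hJ : ∀ x, J (J x) = x⁻¹)
    (hIJ : ∀ x, J (I x) = (I (J x))⁻¹) (x : A) : I (J (I (J x))) = x⁻¹ := by
  simp only [hI, hJ, hIJ, map_inv, inv_inv]

theorem sq_card_exp [Finite A] (hodd : Odd (Nat.card A)) (hI : ∀ x, I (I x) = x⁻¹)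
    (hJ : ∀ x, J (J x) = x⁻¹) (hIJ : ∀ x, J (I x) = (I (J x))⁻¹) (a b e : ℕ)
    (he : e ∣ a ^ 2 + b ^ 2 + 1) (M : Subgroup A) (hMe : ∀ x ∈ M, x ^ e = 1)
    (hMI : ∀ x ∈ M, I x ∈ M) (hMJ : ∀ x ∈ M, J x ∈ M) : IsSquare (Nat.card M) := by
  set ψ : A →* A := MonoidHom.id A * T I J a b with hψ
  have hψx : ∀ x, ψ x = x * T I J a b x := fun x => rfl
  have hTM : ∀ x ∈ M, T I J a b x ∈ M := fun x hx =>
    M.mul_mem (M.pow_mem (hMI x hx) a) (M.pow_mem (hMJ x hx) b)
  have hcard := card_inf_ker_mul_card_map M ψ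
  have hW : Function.Injective (I.comp J) := by
    intro x y hxy
    have h1 : I (J (I (J x))) = I (J (I (J y))) := congrArg (fun z => I (J z)) hxy
    rw [W_W I J hI hJ hIJ, W_W I J hI hJ hIJ] at h1
    exact inv_injective h1
  have h1 : (M ⊓ ψ.ker).map (I.comp J) ≤ M.map ψ := by
    rintro _ ⟨x, ⟨hxM, hxk⟩, rfl⟩
    have hTx : T I J a b x = x⁻¹ := by
      have h := MonoidHom.mem_ker.mp hxk
      rw [hψx] at h
      exact eq_inv_of_mul_eq_one_right h
    have hwM : I (J x) ∈ M := hMI _ (hMJ _ hxM)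
    have hTw : T I J a b (I (J x)) = I (J x) := by
      rw [T_W I J hI hJ hIJ, hTx, map_inv, map_inv, inv_inv]
    obtain ⟨c, hc⟩ := hodd
    refine ⟨I (J x) ^ (c + 1), M.pow_mem hwM _, ?_⟩
    show ψ (I (J x) ^ (c + 1)) = I (J x)
    rw [hψx, map_pow, hTw, ← pow_add]
    have h2 : c + 1 + (c + 1) = Nat.card A + 1 := by omega
    rw [h2, pow_succ, pow_card_eq_one', one_mul]
  have h2 : (M.map ψ).map (I.comp J) ≤ M ⊓ ψ.ker := by
    rintro _ ⟨u, ⟨x, hxM, rfl⟩, rfl⟩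
    have hTu : T I J a b (ψ x) = ψ x := by
      rw [hψx, map_mul, T_T I J hI hJ hIJ a b e he x (hMe x hxM), mul_comm]
    refine ⟨hMI _ (hMJ _ (M.mul_mem hxM (hTM x hxM))), ?_⟩
    show ψ (I (J (ψ x))) = 1
    rw [hψx (I (J (ψ x))), T_W I J hI hJ hIJ, hTu, mul_inv_cancel]
  have h3 : Nat.card (M ⊓ ψ.ker : Subgroup A) ≤ Nat.card (M.map ψ) := by
    rw [← Subgroup.card_map_of_injective hW]; exact Subgroup.card_le_of_le h1
  have h4 : Nat.card (M.map ψ) ≤ Nat.card (M ⊓ ψ.ker : Subgroup A) := by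
    rw [← Subgroup.card_map_of_injective hW]; exact Subgroup.card_le_of_le h2
  have h5 : Nat.card (M ⊓ ψ.ker : Subgroup A) = Nat.card (M.map ψ) := le_antisymm h3 h4
  exact ⟨Nat.card (M.map ψ), by rw [← hcard, h5]⟩

theorem sq_card [Finite A] (hodd : Odd (Nat.card A)) (hI : ∀ x, I (I x) = x⁻¹)
    (hJ : ∀ x, J (J x) = x⁻¹) (hIJ : ∀ x, J (I x) = (I (J x))⁻¹) :
    ∀ (n : ℕ) (M : Subgroup A), Nat.card M = n → (∀ x ∈ M, I x ∈ M) → (∀ x ∈ M, J x ∈ M) →
      IsSquare n := by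
  intro n
  induction n using Nat.strong_induction_on with
  | _ n ih =>
    intro M hM hMI hMJ
    by_cases hn1 : n = 1
    · rw [hn1]; exact ⟨1, rfl⟩
    have hpp : n.minFac.Prime := Nat.minFac_prime hn1
    haveI : Fact n.minFac.Prime := ⟨hpp⟩
    have hpn : n.minFac ∣ n := Nat.minFac_dvd n
    obtain ⟨a, b, hab⟩ := ZMod.sq_add_sq n.minFac (-1)
    have he : n.minFac ∣ a.val ^ 2 + b.val ^ 2 + 1 := by
      rw [← ZMod.natCast_eq_zero_iff]
      push_cast
      rw [ZMod.natCast_zmod_val, ZMod.natCast_zmod_val, hab]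
      ring
    have hcard := card_inf_ker_mul_card_map M (powMonoidHom n.minFac)
    have hker : ∀ x : A, x ∈ (powMonoidHom n.minFac : A →* A).ker ↔ x ^ n.minFac = 1 := by
      intro x
      rw [MonoidHom.mem_ker]; rfl
    have h1 : IsSquare (Nat.card (M ⊓ (powMonoidHom n.minFac : A →* A).ker : Subgroup A)) := by
      apply sq_card_exp I J hodd hI hJ hIJ a.val b.val n.minFac he
      · intro x hx
        exact (hker x).mp hx.2
      · intro x hx
        refine ⟨hMI x hx.1, (hker _).mpr ?_⟩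
        rw [← map_pow, (hker x).mp hx.2, map_one]
      · intro x hx
        refine ⟨hMJ x hx.1, (hker _).mpr ?_⟩
        rw [← map_pow, (hker x).mp hx.2, map_one]
    have h2lt : Nat.card (M.map (powMonoidHom n.minFac : A →* A)) < n := by
      obtain ⟨x, hx⟩ := exists_prime_orderOf_dvd_card' (G := M) n.minFac (by rw [hM]; exact hpn)
      have hx1 : (x : A) ∈ M ⊓ (powMonoidHom n.minFac : A →* A).ker := by
        refine ⟨x.2, (hker _).mpr ?_⟩
        rw [← hx, ← Subgroup.coe_pow, pow_orderOf_eq_one, Subgroup.coe_one]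
      have hne : (M ⊓ (powMonoidHom n.minFac : A →* A).ker : Subgroup A) ≠ ⊥ := by
        intro h
        rw [h, Subgroup.mem_bot] at hx1
        have h3 : x = 1 := Subtype.ext hx1
        rw [h3, orderOf_one] at hx
        exact hpp.one_lt.ne hx
      have h2 : 1 < Nat.card (M ⊓ (powMonoidHom n.minFac : A →* A).ker : Subgroup A) :=
        (Subgroup.one_lt_card_iff_ne_bot _).mpr hne
      have h3pos : 0 < Nat.card (M.map (powMonoidHom n.minFac : A →* A)) := Nat.card_pos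
      have h4 : Nat.card (M ⊓ (powMonoidHom n.minFac : A →* A).ker : Subgroup A) *
          Nat.card (M.map (powMonoidHom n.minFac : A →* A)) = n := by rw [hcard, hM]
      nlinarith
    have h2 : IsSquare (Nat.card (M.map (powMonoidHom n.minFac : A →* A))) := by
      apply ih _ h2lt (M.map (powMonoidHom n.minFac : A →* A)) rfl
      · rintro _ ⟨x, hx, rfl⟩
        exact ⟨I x, hMI x hx, (map_pow I x _).symm⟩
      · rintro _ ⟨x, hx, rfl⟩
        exact ⟨J x, hMJ x hx, (map_pow J x _).symm⟩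
    rw [← hM, ← hcard]
    exact h1.mul h2

end abstract

theorem frob_sq {L : Type*} [Group L] [Finite L] (H : Subgroup L)
    (hF : Cfsg.IsFrobeniusComplement H) (i j : L) (hi : i ∈ H) (hj : j ∈ H)
    (hij : i * i = j * j) (ht1 : i * i ≠ 1) (ht2 : (i * i) * (i * i) = 1)
    (hc : i * j = (i * i) * (j * i)) :
    Odd (Nat.card (Cfsg.frobeniusKernel H)) ∧ IsSquare (Nat.card (Cfsg.frobeniusKernel H)) := by
  obtain ⟨N, hNK, hNn, hNc⟩ := Cfsg.Agent.Lib.Lead.frobenius_kernel_subgroup H hF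
  have hcardK : Nat.card (Cfsg.frobeniusKernel H) = Nat.card N := by rw [← hNK]; rfl
  have htH : i * i ∈ H := H.mul_mem hi hi
  have hdisj : ∀ x ∈ N, x ∈ H → x = 1 := fun x hxN hxH =>
    Subgroup.disjoint_def.mp hNc.disjoint hxN hxH
  have hfree : ∀ h ∈ H, h ≠ 1 → ∀ x ∈ N, h * x * h⁻¹ = x → x = 1 := by
    intro h hh hh1 x hx hfix
    by_contra hx1
    have hxH : x ∉ H := fun hxH => hx1 (hdisj x hx hxH)
    have h1 := hF.2.2 x hxH
    have h2 : h ∈ H ⊓ MulAut.conj x • H := by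
      refine ⟨hh, ?_⟩
      show h ∈ MulAut.conj x • H
      rw [Subgroup.mem_smul_pointwise_iff_exists]
      refine ⟨h, hh, ?_⟩
      rw [MulAut.smul_def, MulAut.conj_apply]
      calc x * h * x⁻¹ = (h * x * h⁻¹) * h * x⁻¹ := by rw [hfix]
        _ = h := by group
    rw [h1, Subgroup.mem_bot] at h2
    exact hh1 h2
  have hinv : ∀ x ∈ N, (i * i) * x * (i * i)⁻¹ = x⁻¹ :=
    Cfsg.Agent.Lib.Helper7.IS.fpf_inverts (i * i) ht2 N (fun v hv => hNn.conj_mem v hv (i * i))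
      (fun v hv h => hfree (i * i) htH ht1 v hv h)
  have hcommL : ∀ x ∈ N, ∀ y ∈ N, x * y = y * x := by
    intro x hx y hy
    have h1 := hinv (x * y) (N.mul_mem hx hy)
    have h2 : (i * i) * (x * y) * (i * i)⁻¹ =
        ((i * i) * x * (i * i)⁻¹) * ((i * i) * y * (i * i)⁻¹) := by group
    rw [h2, hinv x hx, hinv y hy] at h1
    have h3 : (y * x)⁻¹ = (x * y)⁻¹ := by rw [mul_inv_rev]; exact h1
    exact (inv_injective h3).symm
  letI : CommGroup N :=
    { (inferInstance : Group N) with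
      mul_comm := fun x y => Subtype.ext (hcommL x x.2 y y.2) }
  let I : N →* N := (MulAut.conjNormal i : MulAut N).toMonoidHom
  let J : N →* N := (MulAut.conjNormal j : MulAut N).toMonoidHom
  have hIx : ∀ x : N, ((I x : N) : L) = i * x * i⁻¹ := fun x => MulAut.conjNormal_apply i x
  have hJx : ∀ x : N, ((J x : N) : L) = j * x * j⁻¹ := fun x => MulAut.conjNormal_apply j x
  have hI : ∀ x : N, I (I x) = x⁻¹ := by
    intro x
    apply Subtype.ext
    rw [hIx, hIx, Subgroup.coe_inv, ← hinv x x.2]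
    group
  have hJ : ∀ x : N, J (J x) = x⁻¹ := by
    intro x
    apply Subtype.ext
    rw [hJx, hJx, Subgroup.coe_inv, ← hinv x x.2, hij]
    group
  have hIJ : ∀ x : N, J (I x) = (I (J x))⁻¹ := by
    intro x
    apply Subtype.ext
    rw [hJx, hIx, Subgroup.coe_inv, hIx, hJx]
    have hy : (j * i) * x * (j * i)⁻¹ ∈ N := hNn.conj_mem x x.2 (j * i)
    have h1 := hinv _ hy
    have h2 : i * (j * (x : L) * j⁻¹) * i⁻¹ = (i * i) * ((j * i) * x * (j * i)⁻¹) * (i * i)⁻¹ := by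
      calc i * (j * (x : L) * j⁻¹) * i⁻¹ = (i * j) * x * (i * j)⁻¹ := by group
        _ = ((i * i) * (j * i)) * x * ((i * i) * (j * i))⁻¹ := by rw [hc]
        _ = (i * i) * ((j * i) * x * (j * i)⁻¹) * (i * i)⁻¹ := by group
    rw [h2, h1, inv_inv]
    group
  have hodd : Odd (Nat.card N) := by
    obtain ⟨q, hq⟩ := Cfsg.Agent.Lib.Lead.frob_index_mod H hF
    have h2 : 2 ∣ Nat.card H := by
      haveI : Fact (Nat.Prime 2) := ⟨Nat.prime_two⟩
      have h3 : orderOf (⟨i * i, htH⟩ : H) = 2 := by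
        apply orderOf_eq_prime
        · apply Subtype.ext
          rw [sq]
          exact ht2
        · intro h
          exact ht1 (congrArg Subtype.val h)
      rw [← h3]; exact orderOf_dvd_natCard _
    have h4 : Nat.card N = H.index := by
      rw [← hcardK]; exact Cfsg.Agent.Lib.Helper7.FK.card_frobeniusKernel H hF
    rw [h4, hq]
    obtain ⟨c, hc'⟩ := h2
    rw [hc']
    exact ⟨c * q, by ring⟩
  have hsq := sq_card I J hodd hI hJ hIJ (Nat.card N) ⊤ Subgroup.card_top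
    (fun _ _ => Subgroup.mem_top _) (fun _ _ => Subgroup.mem_top _)
  rw [hcardK]
  exact ⟨hodd, hsq⟩

end Cfsg.Agent.Lib.Helper7.QS
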