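import Mathlib
import Cfsg.Prelude.Def_PLocal
import Cfsg.Agent.Lib.Helper7.Regular

set_option autoImplicit false

namespace Cfsg.Agent.Lib.Helper7.Reg2

open scoped commutatorElement
open Cfsg.Agent.Lib.Helper7.Reg

section reg2

variable {G : Type*} [Group G]

/-- the regularity identity at a single exponent -/
def RegAt (p n : ℕ) (G : Type*) [Group G] : Prop :=
  ∀ a b : G, ∃ c ∈ Cfsg.powerClosure p n
      ⁅Subgroup.closure ({a, b} : Set G), Subgroup.closure ({a, b} : Set G)⁆,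
    (a * b) ^ (p ^ n) = a ^ (p ^ n) * b ^ (p ^ n) * c

theorem powerClosure_mono' (p n : ℕ) {H K : Subgroup G} (h : H ≤ K) :
    Cfsg.powerClosure p n H ≤ Cfsg.powerClosure p n K := by
  unfold Cfsg.powerClosure
  apply Subgroup.closure_mono
  rintro y ⟨x, hx, rfl⟩
  exact ⟨x, h hx, rfl⟩

theorem pow_mem_powerClosure (p n : ℕ) {H : Subgroup G} {x : G} (hx : x ∈ H) :
    x ^ (p ^ n) ∈ Cfsg.powerClosure p n H := by
  unfold Cfsg.powerClosure
  exact Subgroup.subset_closure ⟨x, hx, rfl⟩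

theorem pair_le {H : Subgroup G} {a b : G} (ha : a ∈ H) (hb : b ∈ H) :
    Subgroup.closure ({a, b} : Set G) ≤ H := by
  rw [Subgroup.closure_le]
  intro z hz
  simp only [Set.mem_insert_iff, Set.mem_singleton_iff] at hz
  rcases hz with h | h
  · rw [h]; exact ha
  · rw [h]; exact hb

theorem comm_le_self (H : Subgroup G) : ⁅H, H⁆ ≤ H := by
  rw [Subgroup.commutator_le]
  intro g₁ h₁ g₂ h₂
  exact H.mul_mem (H.mul_mem (H.mul_mem h₁ h₂) (H.inv_mem h₁)) (H.inv_mem h₂)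

variable [Finite G] {p : ℕ} [Fact p.Prime]

theorem pow_mul_pow (hG : IsPGroup p G) (n : ℕ) (hR : RegAt p n G) : ∀ (N : ℕ) (x y : G),
    Nat.card (Subgroup.closure ({x, y} : Set G)) ≤ N →
    ∃ z ∈ Subgroup.closure ({x, y} : Set G), x ^ (p ^ n) * y ^ (p ^ n) = z ^ (p ^ n) := by
  intro N
  induction N with
  | zero =>
    intro x y h
    have hpos := Nat.card_pos (α := Subgroup.closure ({x, y} : Set G))
    omega
  | succ N ih =>
    intro x y hxy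
    by_cases hlt : Nat.card (Subgroup.closure ({x, y} : Set G)) ≤ N
    · exact ih x y hlt
    have hIH : ∀ x' y' : G, Nat.card (Subgroup.closure ({x', y'} : Set G))
        < Nat.card (Subgroup.closure ({x, y} : Set G)) →
        ∃ z ∈ Subgroup.closure ({x', y'} : Set G),
          x' ^ (p ^ n) * y' ^ (p ^ n) = z ^ (p ^ n) := by
      intro x' y' h
      exact ih x' y' (by omega)
    have hR' := hR x y
    obtain ⟨L, hL⟩ : ∃ L, L = Subgroup.closure ({x, y} : Set G) := ⟨_, rfl⟩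
    rw [← hL] at hIH hR' ⊢
    have hxL : x ∈ L := by rw [hL]; exact Subgroup.subset_closure (by simp)
    have hyL : y ∈ L := by rw [hL]; exact Subgroup.subset_closure (by simp)
    by_cases hc : x * y = y * x
    · exact ⟨x * y, L.mul_mem hxL hyL, ((show Commute x y from hc).mul_pow _).symm⟩
    have hDL : ⁅L, L⁆ ≤ L := comm_le_self L
    have hkey : ∀ t ∈ L, Subgroup.zpowers t ⊔ ⁅L, L⁆ ≠ L := by
      intro t ht h
      have h1 := lemP hG L t ht h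
      apply hc
      obtain ⟨i, hi⟩ := Subgroup.mem_zpowers_iff.mp (h1 hxL)
      obtain ⟨j, hj⟩ := Subgroup.mem_zpowers_iff.mp (h1 hyL)
      rw [← hi, ← hj]
      exact ((Commute.refl t).zpow_zpow i j).eq
    have hDlt : Nat.card (⁅L, L⁆ : Subgroup G) < Nat.card L := by
      by_contra hcon
      push Not at hcon
      have h1 : ⁅L, L⁆ = L := Subgroup.eq_of_le_of_card_ge hDL hcon
      apply hkey 1 L.one_mem
      rw [Subgroup.zpowers_one_eq_bot, bot_sup_eq]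
      exact h1
    have hA : ∀ w ∈ Cfsg.powerClosure p n ⁅L, L⁆, ∃ d ∈ ⁅L, L⁆, w = d ^ (p ^ n) := by
      intro w hw
      unfold Cfsg.powerClosure at hw
      induction hw using Subgroup.closure_induction with
      | mem s hs => exact hs
      | one => exact ⟨1, Subgroup.one_mem _, (one_pow _).symm⟩
      | mul w₁ w₂ _ _ ih₁ ih₂ =>
        obtain ⟨d₁, hd₁, rfl⟩ := ih₁
        obtain ⟨d₂, hd₂, rfl⟩ := ih₂
        have hle : Subgroup.closure ({d₁, d₂} : Set G) ≤ ⁅L, L⁆ := pair_le hd₁ hd₂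
        have hlt' := lt_of_le_of_lt (Subgroup.card_le_of_le hle) hDlt
        obtain ⟨z, hz, he⟩ := hIH d₁ d₂ hlt'
        exact ⟨z, hle hz, he⟩
      | inv w _ ih =>
        obtain ⟨d, hd, rfl⟩ := ih
        exact ⟨d⁻¹, Subgroup.inv_mem _ hd, (inv_pow _ _).symm⟩
    obtain ⟨c, hcmem, hceq⟩ := hR'
    obtain ⟨d, hd, rfl⟩ := hA c hcmem
    have he : x ^ (p ^ n) * y ^ (p ^ n) = (x * y) ^ (p ^ n) * (d⁻¹) ^ (p ^ n) := by
      rw [hceq, inv_pow, mul_inv_cancel_right]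
    rw [he]
    have hxyL : x * y ∈ L := L.mul_mem hxL hyL
    have hdL : d⁻¹ ∈ L := L.inv_mem (hDL hd)
    have hle : Subgroup.closure ({x * y, d⁻¹} : Set G) ≤ L := pair_le hxyL hdL
    by_cases hlt2 : Nat.card (Subgroup.closure ({x * y, d⁻¹} : Set G)) < Nat.card L
    · obtain ⟨z, hz, he2⟩ := hIH (x * y) d⁻¹ hlt2
      exact ⟨z, hle hz, he2⟩
    · exfalso
      push Not at hlt2
      have h1 : Subgroup.closure ({x * y, d⁻¹} : Set G) = L :=
        Subgroup.eq_of_le_of_card_ge hle hlt2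
      apply hkey (x * y) hxyL
      apply le_antisymm
      · exact sup_le (Subgroup.zpowers_le.mpr hxyL) hDL
      · exact h1.ge.trans (pair_le (Subgroup.mem_sup_left (Subgroup.mem_zpowers _))
          (Subgroup.mem_sup_right (Subgroup.inv_mem _ hd)))

theorem part1_aux (hG : IsPGroup p G) (n : ℕ) (hR : RegAt p n G) (H : Subgroup G) :
    ∀ w ∈ Cfsg.powerClosure p n H, ∃ x ∈ H, w = x ^ (p ^ n) := by
  intro w hw
  unfold Cfsg.powerClosure at hw
  induction hw using Subgroup.closure_induction with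
  | mem s hs => exact hs
  | one => exact ⟨1, H.one_mem, (one_pow _).symm⟩
  | mul w₁ w₂ _ _ ih₁ ih₂ =>
    obtain ⟨d₁, hd₁, rfl⟩ := ih₁
    obtain ⟨d₂, hd₂, rfl⟩ := ih₂
    obtain ⟨z, hz, he⟩ := pow_mul_pow hG n hR _ d₁ d₂ le_rfl
    exact ⟨z, pair_le hd₁ hd₂ hz, he⟩
  | inv w _ ih =>
    obtain ⟨d, hd, rfl⟩ := ih
    exact ⟨d⁻¹, H.inv_mem hd, (inv_pow _ _).symm⟩

theorem part1 (hG : IsPGroup p G) (n : ℕ) (hR : RegAt p n G) (H : Subgroup G) :
    {y : G | ∃ x ∈ H, y = x ^ (p ^ n)} = (Cfsg.powerClosure p n H : Set G) := by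
  apply Set.Subset.antisymm
  · intro y hy
    unfold Cfsg.powerClosure
    exact Subgroup.subset_closure hy
  · intro w hw
    exact part1_aux hG n hR H w hw

theorem part2 (hG : IsPGroup p G) (n : ℕ) (hR : RegAt p n G) (H : Subgroup G) :
    ⁅Cfsg.powerClosure p n H, Cfsg.powerClosure p n H⁆ ≤ Cfsg.powerClosure p n ⁅H, H⁆ := by
  rw [Subgroup.commutator_le]
  intro g₁ h₁ g₂ h₂
  obtain ⟨x, hx, rfl⟩ := part1_aux hG n hR H g₁ h₁
  obtain ⟨y, hy, rfl⟩ := part1_aux hG n hR H g₂ h₂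
  obtain ⟨v, hv⟩ : ∃ v, v = y ^ (p ^ n) := ⟨_, rfl⟩
  rw [← hv]
  have hvH : v ∈ H := by rw [hv]; exact H.pow_mem hy _
  have hbH : v * x⁻¹ * v⁻¹ ∈ H := H.mul_mem (H.mul_mem hvH (H.inv_mem hx)) (H.inv_mem hvH)
  obtain ⟨c, hcmem, hceq⟩ := hR x (v * x⁻¹ * v⁻¹)
  have hc' : c ∈ Cfsg.powerClosure p n ⁅H, H⁆ :=
    powerClosure_mono' p n (Subgroup.commutator_mono (pair_le hx hbH) (pair_le hx hbH)) hcmem
  have hab : x * (v * x⁻¹ * v⁻¹) = ⁅x, v⁆ := by rw [commutatorElement_def]; group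
  have hab' : ⁅x, v⁆ ∈ ⁅H, H⁆ := Subgroup.commutator_mem_commutator hx hvH
  have e1 : ⁅x ^ (p ^ n), v⁆ = x ^ (p ^ n) * (v * x⁻¹ * v⁻¹) ^ (p ^ n) := by
    rw [commutatorElement_def, conj_pow, inv_pow]
    simp only [mul_assoc]
  rw [e1]
  have e2 : x ^ (p ^ n) * (v * x⁻¹ * v⁻¹) ^ (p ^ n) = ⁅x, v⁆ ^ (p ^ n) * c⁻¹ := by
    rw [← hab, hceq, mul_inv_cancel_right]
  rw [e2]
  exact Subgroup.mul_mem _ (pow_mem_powerClosure p n hab') (Subgroup.inv_mem _ hc')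

theorem regAt_succ (hG : IsPGroup p G)
    (hW : ∀ a b : G, ∃ c ∈ ⁅Subgroup.closure ({a, b} : Set G),
      Subgroup.closure ({a, b} : Set G)⁆, (a * b) ^ p = a ^ p * b ^ p * c ^ p)
    (n : ℕ) (hR : RegAt p n G) : RegAt p (n + 1) G := by
  intro x y
  have hR' := hR x y
  obtain ⟨L, hL⟩ : ∃ L, L = Subgroup.closure ({x, y} : Set G) := ⟨_, rfl⟩
  rw [← hL] at hR' ⊢
  have hxL : x ∈ L := by rw [hL]; exact Subgroup.subset_closure (by simp)
  have hyL : y ∈ L := by rw [hL]; exact Subgroup.subset_closure (by simp)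
  have hDL : ⁅L, L⁆ ≤ L := comm_le_self L
  obtain ⟨c₀, hc₀mem, hc₀eq⟩ := hR'
  obtain ⟨d, hd, rfl⟩ := part1_aux hG n hR _ c₀ hc₀mem
  obtain ⟨u, hu⟩ : ∃ u, u = x ^ (p ^ n) := ⟨_, rfl⟩
  obtain ⟨v, hv⟩ : ∃ v, v = y ^ (p ^ n) := ⟨_, rfl⟩
  obtain ⟨w, hw⟩ : ∃ w, w = d ^ (p ^ n) := ⟨_, rfl⟩
  rw [← hu, ← hv, ← hw] at hc₀eq
  have huM : u ∈ Cfsg.powerClosure p n L := by rw [hu]; exact pow_mem_powerClosure p n hxL
  have hvM : v ∈ Cfsg.powerClosure p n L := by rw [hv]; exact pow_mem_powerClosure p n hyL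
  have hwM : w ∈ Cfsg.powerClosure p n L := by
    rw [hw]; exact pow_mem_powerClosure p n (hDL hd)
  obtain ⟨c₁, hc₁mem, hc₁eq⟩ := hW (u * v) w
  obtain ⟨c₂, hc₂mem, hc₂eq⟩ := hW u v
  have hP2 := part2 hG n hR L
  have hc₁' : c₁ ∈ Cfsg.powerClosure p n ⁅L, L⁆ :=
    hP2 (Subgroup.commutator_mono (pair_le (Subgroup.mul_mem _ huM hvM) hwM)
      (pair_le (Subgroup.mul_mem _ huM hvM) hwM) hc₁mem)
  have hc₂' : c₂ ∈ Cfsg.powerClosure p n ⁅L, L⁆ :=
    hP2 (Subgroup.commutator_mono (pair_le huM hvM) (pair_le huM hvM) hc₂mem)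
  obtain ⟨f₁, hf₁, rfl⟩ := part1_aux hG n hR _ c₁ hc₁'
  obtain ⟨f₂, hf₂, rfl⟩ := part1_aux hG n hR _ c₂ hc₂'
  refine ⟨f₂ ^ (p ^ (n + 1)) * d ^ (p ^ (n + 1)) * f₁ ^ (p ^ (n + 1)), ?_, ?_⟩
  · exact Subgroup.mul_mem _ (Subgroup.mul_mem _ (pow_mem_powerClosure p (n + 1) hf₂)
      (pow_mem_powerClosure p (n + 1) hd)) (pow_mem_powerClosure p (n + 1) hf₁)
  · have e : ∀ t : G, t ^ (p ^ (n + 1)) = (t ^ (p ^ n)) ^ p := by
      intro t; rw [pow_succ, pow_mul]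
    rw [e (x * y), e x, e y, e f₂, e d, e f₁, ← hu, ← hv, ← hw, hc₀eq, hc₁eq, hc₂eq]
    simp only [mul_assoc]

theorem regAt_all (hG : IsPGroup p G)
    (hW : ∀ a b : G, ∃ c ∈ ⁅Subgroup.closure ({a, b} : Set G),
      Subgroup.closure ({a, b} : Set G)⁆, (a * b) ^ p = a ^ p * b ^ p * c ^ p) :
    ∀ n, RegAt p n G := by
  intro n
  induction n with
  | zero =>
    intro a b
    refine ⟨1, Subgroup.one_mem _, ?_⟩
    simp
  | succ n ih => exact regAt_succ hG hW n ih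

end reg2

end Cfsg.Agent.Lib.Helper7.Reg2
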